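import Cfsg.Agent.SchurG.S62.Main
import Cfsg.Agent.Schur.Mx

set_option autoImplicit false
set_option maxRecDepth 100000

namespace Cfsg.Agent.SchurG.S62
open Cfsg.Agent.Comp Cfsg.Agent.Schur Matrix

def I : List Nat := [nat_lit 1, nat_lit 8, nat_lit 64, nat_lit 512, nat_lit 4096, nat_lit 32768]

def C : List Nat := [nat_lit 1, nat_lit 8, nat_lit 64, nat_lit 512, nat_lit 4096, nat_lit 32768]

def O : List Nat := [nat_lit 1, nat_lit 8, nat_lit 64, nat_lit 512, nat_lit 4096, nat_lit 32768]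

def en : Fin 3 ⊕ Fin 3 → ℕ := Sum.elim Fin.val fun i => 3 + i.val

def bs : List (Fin 3 ⊕ Fin 3 → ZMod 2) := ((List.finRange 3).map Sum.inl ++ (List.finRange 3).map Sum.inr).map (fun j => Pi.single j 1)

theorem ms : MS (nat_lit 2) (nat_lit 3) (nat_lit 7) (nat_lit 6) I C O bs en (1 : ZMod 2) :=
  ⟨by decide +kernel, by decide +kernel, by decide +kernel, by decide +kernel, by decide +kernel⟩

def M : List (List Nat) :=
  [[nat_lit 1, nat_lit 36929, nat_lit 36873, nat_lit 37449, nat_lit 32841, nat_lit 4169],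
   [nat_lit 1, nat_lit 4096, nat_lit 64, nat_lit 512, nat_lit 8, nat_lit 32768],
   [nat_lit 1, nat_lit 36929, nat_lit 4168, nat_lit 4616, nat_lit 32841, nat_lit 36872],
   [nat_lit 1, nat_lit 32841, nat_lit 36873, nat_lit 37448, nat_lit 36929, nat_lit 4169],
   [nat_lit 1, nat_lit 36928, nat_lit 36872, nat_lit 513, nat_lit 32840, nat_lit 4168],
   [nat_lit 1, nat_lit 32841, nat_lit 4169, nat_lit 37449, nat_lit 36929, nat_lit 36873],
   [nat_lit 1, nat_lit 36865, nat_lit 36937, nat_lit 37385, nat_lit 32777, nat_lit 32768],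
   [nat_lit 1, nat_lit 32768, nat_lit 4097, nat_lit 33289, nat_lit 65, nat_lit 8],
   [nat_lit 36936, nat_lit 585, nat_lit 513, nat_lit 36872, nat_lit 4673, nat_lit 4616],
   [nat_lit 1, nat_lit 8, nat_lit 64, nat_lit 512, nat_lit 4096, nat_lit 32768]]

theorem Mok : MOK (nat_lit 2) (nat_lit 3) bs en M := ms.mok (by decide +kernel)

/-- the matrices of the letters -/
def Mm : ℕ → Matrix (Fin 3 ⊕ Fin 3) (Fin 3 ⊕ Fin 3) (ZMod 2) := mat (nat_lit 3) bs en M

def Zs : List (List Nat) :=
  [[],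
   [],
   [],
   [],
   [],
   [],
   [],
   [],
   [],
   [],
   [],
   [],
   [],
   [],
   [],
   [],
   [],
   [],
   [],
   [],
   [],
   [],
   [],
   [],
   [],
   [],
   [],
   [],
   [],
   [],
   [],
   [],
   [],
   [],
   [],
   [],
   [],
   [],
   [],
   [],
   [],
   [],
   [],
   [],
   [],
   [],
   [],
   [],
   [],
   [],
   []]

theorem eqsM : ∀ e ∈ (R.zip Zs), ev Mm e.1 = ev Mm e.2 := ms.eqs Mok (by decide +kernel)

theorem symp : ∀ x < 9, Mm x * J (Fin 3) (ZMod 2) * (Mm x)ᵀ = J (Fin 3) (ZMod 2) := by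
  decide +kernel

theorem exists_iso (F : Type*) [Field F] [Fintype F] (hF : Fintype.card F = 2) :
    Nonempty (G ≃* PSp 3 F) := by
  obtain ⟨e⟩ := exists_emb (ZMod 2) F (ZMod.card 2) hF
  have := simple
  refine equiv_quot pres hR Subtype.val_injective e.injective
    (fun x hx => mem_sp e (symp x hx)) eqsM (c := 1) (a := 0) (b := 6) (by decide +kernel) (by decide +kernel) (by decide +kernel) ?_
  refine (Nat.card_le_card_of_surjective _ (QuotientGroup.mk'_surjective _)).trans ?_
  rw [card.2.1, Classical.SpMat.card_sp]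
  simp [hF, Finset.prod_range_succ]

end Cfsg.Agent.SchurG.S62
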