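import Cfsg.Agent.Comp.Extra

set_option autoImplicit false
set_option maxRecDepth 100000

namespace Cfsg.Agent.SchurG.S62
open Cfsg.Agent.Comp

def R : List (List Nat) :=
  [[0, 0],
   [1, 1],
   [2, 2],
   [3, 3],
   [4, 4],
   [5, 5],
   [6, 6],
   [7, 7],
   [8, 8],
   [0, 1, 0, 1],
   [0, 2, 0, 2],
   [1, 2, 1, 2],
   [0, 3, 0, 3],
   [1, 3, 1, 3],
   [2, 3, 2, 3],
   [0, 4, 0, 4],
   [1, 4, 1, 4],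
   [2, 4, 2, 4],
   [3, 4, 3, 4],
   [0, 5, 0, 5],
   [1, 5, 1, 5],
   [2, 5, 2, 5],
   [3, 5, 3, 5],
   [4, 5, 4, 5],
   [1, 6, 1, 6],
   [0, 3, 6, 0, 3, 6],
   [0, 6, 0, 6, 0, 6],
   [2, 6, 2, 6, 2, 6, 2, 6],
   [5, 6, 5, 6, 5, 6, 5, 6],
   [0, 1, 3, 4, 6, 4, 6, 4, 6],
   [0, 2, 6, 0, 2, 6, 2, 0, 6],
   [2, 6, 3, 5, 6, 2, 6, 4, 6],
   [0, 2, 6, 4, 5, 6, 5, 4, 6],
   [0, 7, 0, 7],
   [4, 7, 4, 7],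
   [0, 2, 7, 1, 7],
   [0, 4, 5, 7, 5, 7],
   [1, 3, 7, 1, 3, 7],
   [6, 7, 6, 7, 6, 7, 6, 7],
   [5, 6, 7, 6, 5, 6, 7, 6, 5, 6, 7, 6],
   [0, 8, 0, 8],
   [1, 8, 1, 8],
   [2, 8, 2, 8],
   [4, 8, 4, 8],
   [3, 4, 8, 3, 8],
   [4, 7, 8, 7, 8],
   [1, 2, 7, 1, 2, 7],
   [1, 2, 4, 5, 8, 5, 8],
   [6, 8, 6, 8, 6, 8, 6, 8],
   [0, 2, 4, 6, 5, 6, 8, 6, 5, 6, 8, 6, 5, 6, 8],
   [4, 6, 7, 4, 6, 8, 6, 4, 7, 6, 7, 4, 6, 8, 6, 7]]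

def iv : Nat := 11584701642934304

/-- the presented group -/
abbrev G : Type := Pres 9 R

/-- the letters -/
def s : ℕ → G := presS 9 R

theorem hR : ∀ w ∈ R, ∀ x ∈ w, x < 9 := by decide +kernel

theorem pres : IsPres s 9 R := isPres_pres hR

end Cfsg.Agent.SchurG.S62
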